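import Mathlib
import Cfsg.Agent.Lib.Helper56.TC
import Cfsg.Agent.Lib.Helper28.G2Mult.L2.D
set_option autoImplicit false
set_option maxRecDepth 1000000

namespace Cfsg.Agent.Lib.Helper28.G2Mult.L2

open Cfsg.Agent.Lib.Helper56.TC Cfsg.Agent.Lib.Helper56.TC.Tabs
open Cfsg.Agent.Lib.Helper28.CovL

theorem cN_0 : allRange (fun x => forceN T.chkName x) 0 1775 = true := by decide +kernel
theorem cN_1775 : allRange (fun x => forceN T.chkName x) 1775 1668 = true := by decide +kernel
theorem cN_3443 : allRange (fun x => forceN T.chkName x) 3443 1465 = true := by decide +kernel
theorem cN_4908 : allRange (fun x => forceN T.chkName x) 4908 1266 = true := by decide +kernel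
theorem cN_6174 : allRange (fun x => forceN T.chkName x) 6174 1740 = true := by decide +kernel
theorem cN_7914 : allRange (fun x => forceN T.chkName x) 7914 1799 = true := by decide +kernel
theorem cN_9713 : allRange (fun x => forceN T.chkName x) 9713 1861 = true := by decide +kernel
theorem cN_11574 : allRange (fun x => forceN T.chkName x) 11574 1809 = true := by decide +kernel
theorem cN_13383 : allRange (fun x => forceN T.chkName x) 13383 1902 = true := by decide +kernel
theorem cN_15285 : allRange (fun x => forceN T.chkName x) 15285 1941 = true := by decide +kernel
theorem cN_17226 : allRange (fun x => forceN T.chkName x) 17226 1950 = true := by decide +kernel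
theorem cN_19176 : allRange (fun x => forceN T.chkName x) 19176 1860 = true := by decide +kernel

end Cfsg.Agent.Lib.Helper28.G2Mult.L2
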