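import Mathlib
import Cfsg.Agent.Lib.Helper56.TC
import Cfsg.Agent.Lib.Helper28.G2Mult.L2.D
set_option autoImplicit false
set_option maxRecDepth 1000000

namespace Cfsg.Agent.Lib.Helper28.G2Mult.L2

open Cfsg.Agent.Lib.Helper56.TC Cfsg.Agent.Lib.Helper56.TC.Tabs
open Cfsg.Agent.Lib.Helper28.CovL

theorem cN_21036 : allRange (fun x => forceN T.chkName x) 21036 1862 = true := by decide +kernel
theorem cN_22898 : allRange (fun x => forceN T.chkName x) 22898 1972 = true := by decide +kernel
theorem cN_24870 : allRange (fun x => forceN T.chkName x) 24870 1860 = true := by decide +kernel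
theorem cN_26730 : allRange (fun x => forceN T.chkName x) 26730 1902 = true := by decide +kernel
theorem cN_28632 : allRange (fun x => forceN T.chkName x) 28632 1999 = true := by decide +kernel
theorem cN_30631 : allRange (fun x => forceN T.chkName x) 30631 1905 = true := by decide +kernel
theorem cN_32536 : allRange (fun x => forceN T.chkName x) 32536 1871 = true := by decide +kernel
theorem cN_34407 : allRange (fun x => forceN T.chkName x) 34407 1898 = true := by decide +kernel
theorem cN_36305 : allRange (fun x => forceN T.chkName x) 36305 1900 = true := by decide +kernel
theorem cN_38205 : allRange (fun x => forceN T.chkName x) 38205 1963 = true := by decide +kernel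
theorem cN_40168 : allRange (fun x => forceN T.chkName x) 40168 1877 = true := by decide +kernel
theorem cN_42045 : allRange (fun x => forceN T.chkName x) 42045 1829 = true := by decide +kernel

end Cfsg.Agent.Lib.Helper28.G2Mult.L2
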