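import Mathlib
import Cfsg.Agent.Lib.Helper56.TC
import Cfsg.Agent.Lib.Helper28.G2Mult.L2.D
set_option autoImplicit false
set_option maxRecDepth 1000000

namespace Cfsg.Agent.Lib.Helper28.G2Mult.L2

open Cfsg.Agent.Lib.Helper56.TC Cfsg.Agent.Lib.Helper56.TC.Tabs
open Cfsg.Agent.Lib.Helper28.CovL

theorem cN_43874 : allRange (fun x => forceN T.chkName x) 43874 1773 = true := by decide +kernel
theorem cN_45647 : allRange (fun x => forceN T.chkName x) 45647 1842 = true := by decide +kernel
theorem cN_47489 : allRange (fun x => forceN T.chkName x) 47489 1777 = true := by decide +kernel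
theorem cN_49266 : allRange (fun x => forceN T.chkName x) 49266 1781 = true := by decide +kernel
theorem cN_51047 : allRange (fun x => forceN T.chkName x) 51047 1828 = true := by decide +kernel
theorem cN_52875 : allRange (fun x => forceN T.chkName x) 52875 1756 = true := by decide +kernel
theorem cN_54631 : allRange (fun x => forceN T.chkName x) 54631 1599 = true := by decide +kernel
theorem cN_56230 : allRange (fun x => forceN T.chkName x) 56230 1504 = true := by decide +kernel
theorem cN_57734 : allRange (fun x => forceN T.chkName x) 57734 1436 = true := by decide +kernel
theorem cN_59170 : allRange (fun x => forceN T.chkName x) 59170 1473 = true := by decide +kernel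
theorem cN_60643 : allRange (fun x => forceN T.chkName x) 60643 1494 = true := by decide +kernel
theorem cN_62137 : allRange (fun x => forceN T.chkName x) 62137 1442 = true := by decide +kernel

end Cfsg.Agent.Lib.Helper28.G2Mult.L2
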