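import Mathlib
import Cfsg.Agent.Lib.Helper56.TC
import Cfsg.Agent.Lib.Helper28.G2Mult.L2.D
set_option autoImplicit false
set_option maxRecDepth 1000000

namespace Cfsg.Agent.Lib.Helper28.G2Mult.L2

open Cfsg.Agent.Lib.Helper56.TC Cfsg.Agent.Lib.Helper56.TC.Tabs
open Cfsg.Agent.Lib.Helper28.CovL

theorem cN_63579 : allRange (fun x => forceN T.chkName x) 63579 1269 = true := by decide +kernel
theorem cN_64848 : allRange (fun x => forceN T.chkName x) 64848 860 = true := by decide +kernel
theorem cF_0 : allRange (fun x => forceN T.chkFinName x) 0 666 = true := by decide +kernel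
theorem cF_666 : allRange (fun x => forceN T.chkFinName x) 666 666 = true := by decide +kernel
theorem cF_1332 : allRange (fun x => forceN T.chkFinName x) 1332 666 = true := by decide +kernel
theorem cF_1998 : allRange (fun x => forceN T.chkFinName x) 1998 666 = true := by decide +kernel
theorem cF_2664 : allRange (fun x => forceN T.chkFinName x) 2664 666 = true := by decide +kernel
theorem cF_3330 : allRange (fun x => forceN T.chkFinName x) 3330 666 = true := by decide +kernel
theorem cF_3996 : allRange (fun x => forceN T.chkFinName x) 3996 666 = true := by decide +kernel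
theorem cF_4662 : allRange (fun x => forceN T.chkFinName x) 4662 666 = true := by decide +kernel
theorem cF_5328 : allRange (fun x => forceN T.chkFinName x) 5328 666 = true := by decide +kernel
theorem cF_5994 : allRange (fun x => forceN T.chkFinName x) 5994 54 = true := by decide +kernel

end Cfsg.Agent.Lib.Helper28.G2Mult.L2
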